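import Cfsg.Agent.SIG.PCompIn
import Cfsg.Prelude.Def_Balance

/-! The B-property: 2-components of involution centralizers in core-free groups. -/

set_option autoImplicit false
open Cfsg Subgroup

namespace CL.PComp

open CL.Comp

variable {G : Type*} [Group G] [Finite G]

theorem hasBProperty_iff : HasBProperty G ↔ ∀ t : G, orderOf t = 2 →
    ⁅pLayerOf 2 (centralizer ({t} : Set G)), opOf 2 (centralizer ({t} : Set G))⁆ ≤ oddCore G := by
  refine forall_congr' fun t => forall_congr' fun _ => ?_
  rw [Subgroup.map_commutator]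
  rfl

theorem isCompIn_of_hasBProperty (hB : HasBProperty G) (hO : oddCore G = ⊥) {t : G}
    (ht : orderOf t = 2) {J : Subgroup G} (hJ : IsPComponentOf 2 J (centralizer {t})) :
    IsCompIn J (centralizer {t}) := by
  have := Nat.fact_prime_two
  rw [hJ.isCompIn_iff', ← le_bot_iff, ← hO]
  exact (commutator_mono hJ.le_pLayerOf le_rfl).trans (hasBProperty_iff.1 hB t ht)

theorem pLayerOf_le_layerOf_of_hasBProperty (hB : HasBProperty G) (hO : oddCore G = ⊥) {t : G}
    (ht : orderOf t = 2) : pLayerOf 2 (centralizer ({t} : Set G)) ≤ layerOf (centralizer {t}) := by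
  have := Nat.fact_prime_two
  exact pLayerOf_le_iff.2 fun _ hJ => (isCompIn_of_hasBProperty hB hO ht hJ).le_layerOf

end CL.PComp
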